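import Cfsg.Agent.H29.Dickson.Exists
import Cfsg.Agent.H29.Dickson.Solvable

set_option autoImplicit false

namespace CfsgLib.H29.Dickson

open Matrix

variable {F : Type*} [Field F] [Fintype F]

/-- `PSL₂` over a field with four or five elements is `A₅`. -/
theorem iso_A5_of_small {K : Type*} [Field K] [Fintype K]
    (h : Fintype.card K = 4 ∨ Fintype.card K = 5) :
    Nonempty (Matrix.ProjectiveSpecialLinearGroup (Fin 2) K ≃* alternatingGroup (Fin 5)) := by
  have := finite_P2 (F := K)
  have hs := (not_solvable_PSL (K := K) (by omega)).1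
  refine iso_alternating_five_of_simple ?_
  have hW : Nat.card (Matrix.ProjectiveSpecialLinearGroup (Fin 2) K) = Nat.card (W K) := by
    rw [← range_toPGL]
    exact Nat.card_congr (MonoidHom.ofInjective
      Matrix.ProjectiveSpecialLinearGroup.toPGL_injective).toEquiv
  have h' := card_W_mul (F := K)
  rw [card_P2, Nat.card_eq_fintype_card (α := K)] at h'
  rw [hW]
  generalize Nat.card (W K) = w at h' ⊢
  rcases h with h | h <;> rw [h] at h'
  · rw [show Nat.gcd 2 (4 - 1) = 1 from rfl] at h'; norm_num at h'; omega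
  · rw [show Nat.gcd 2 (5 - 1) = 2 from rfl] at h'; norm_num at h'; omega

theorem pull {P : Subgroup (P2 F)} (hP : P ≤ W F) :
    ∃ H : Subgroup (Matrix.ProjectiveSpecialLinearGroup (Fin 2) F), Nonempty (H ≃* P) := by
  refine ⟨P.comap Matrix.ProjectiveSpecialLinearGroup.toPGL,
    ⟨((P.comap _).equivMapOfInjective _
      Matrix.ProjectiveSpecialLinearGroup.toPGL_injective).trans (MulEquiv.subgroupCongr ?_)⟩⟩
  exact Subgroup.map_comap_eq_self (hP.trans range_toPGL.ge)

theorem exists_A5_sub (p a m : ℕ) [Fact p.Prime] [CharP F p] (ha : 0 < a)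
    (hF : Fintype.card F = (p ^ a) ^ m) (h : p ^ a = 4 ∨ p ^ a = 5) :
    ∃ H : Subgroup (Matrix.ProjectiveSpecialLinearGroup (Fin 2) F),
      Nonempty (H ≃* alternatingGroup (Fin 5)) := by
  classical
  have hL := card_fixF p ha hF
  have : Fintype (fixF F p a) := Fintype.ofFinite _
  obtain ⟨H, ⟨e⟩⟩ := pull (PS_le_W (fixF F p a))
  obtain ⟨e'⟩ := iso_PS (fixF F p a) (K := fixF F p a) Nat.card_eq_fintype_card
  obtain ⟨e''⟩ := iso_A5_of_small (K := fixF F p a) (by rwa [← Nat.card_eq_fintype_card, hL])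
  exact ⟨H, ⟨e.trans (e'.trans e'')⟩⟩

theorem A5_iff {q : ℕ} (hF : Fintype.card F = q) :
    (∃ H : Subgroup (Matrix.ProjectiveSpecialLinearGroup (Fin 2) F),
      Nonempty (H ≃* alternatingGroup (Fin 5))) ↔ 5 ∣ q * (q ^ 2 - 1) := by
  classical
  have := finite_P2 (F := F)
  constructor
  · rintro ⟨H, ⟨e⟩⟩
    have hd := Subgroup.card_subgroup_dvd_card H
    rw [Nat.card_congr e.toEquiv, nat_card_alternatingGroup, Nat.card_fin] at hd
    have hW : Nat.card (Matrix.ProjectiveSpecialLinearGroup (Fin 2) F) = Nat.card (W F) := by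
      rw [← range_toPGL]
      exact Nat.card_congr (MonoidHom.ofInjective
        Matrix.ProjectiveSpecialLinearGroup.toPGL_injective).toEquiv
    have h' := card_W_mul (F := F)
    rw [card_P2, Nat.card_eq_fintype_card (α := F), hF] at h'
    rw [← h']
    refine Dvd.dvd.mul_right ?_ _
    rw [← hW]
    exact (by decide : (5 : ℕ) ∣ Nat.factorial 5 / 2).trans hd
  · intro h5
    obtain ⟨p, hp, hc, -⟩ := exists_p (F := F)
    have := Fact.mk hp
    obtain ⟨n, hn, hq⟩ := exists_deg p (F := F)
    rw [← hF] at h5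
    have h1q : 1 ≤ Fintype.card F ^ 2 := Nat.one_le_pow _ _ Fintype.card_pos
    by_cases hp5 : p = 5
    · subst hp5
      exact exists_A5_sub 5 1 n one_pos (by rw [hq, pow_one]) (Or.inr (pow_one 5))
    have hq2 : Fintype.card F ^ 2 % 5 = 1 := by
      rcases (Nat.Prime.dvd_mul (by norm_num)).mp h5 with h | h
      · rw [hq] at h
        exact absurd ((Nat.prime_dvd_prime_iff_eq (by norm_num) hp).mp
          ((by norm_num : Nat.Prime 5).dvd_of_dvd_pow h)).symm hp5
      · omega
    have key : p % 5 = 1 ∨ p % 5 = 4 ∨ Even n := by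
      by_contra hcon
      push Not at hcon
      obtain ⟨h1, h4, hodd⟩ := hcon
      obtain ⟨k, rfl⟩ := Nat.not_even_iff_odd.mp hodd
      have hne : p % 5 ≠ 0 := fun h0 => hp5
        ((Nat.prime_dvd_prime_iff_eq (by norm_num) hp).mp (Nat.dvd_of_mod_eq_zero h0)).symm
      have : Fintype.card F ^ 2 % 5 = 4 := by
        rw [hq, ← pow_mul, show (2 * k + 1) * 2 = 4 * k + 2 by ring, pow_add, pow_mul,
          Nat.mul_mod, Nat.pow_mod, Nat.pow_mod p 4, Nat.pow_mod p 2]
        rcases (show p % 5 = 2 ∨ p % 5 = 3 by omega) with h | h <;> simp [h]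
      omega
    by_cases hp2 : p = 2
    · subst hp2
      obtain ⟨k, rfl⟩ : Even n := by
        rcases key with h | h | h
        · omega
        · omega
        · exact h
      exact exists_A5_sub 2 2 k two_pos (by rw [hq, ← pow_mul, two_mul]) (Or.inl (by norm_num))
    have h2 : (2 : F) ≠ 0 := by
      simpa using natCast_ne_zero (F := F) p (n := 2)
        (fun h => hp2 ((Nat.prime_dvd_prime_iff_eq hp Nat.prime_two).mp h))
    have h5' : (5 : F) ≠ 0 := by
      simpa using natCast_ne_zero (F := F) p (n := 5)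
        (fun h => hp5 ((Nat.prime_dvd_prime_iff_eq hp (by norm_num)).mp h))
    obtain ⟨r, hr⟩ : ∃ r : F, r ^ 2 = r + 1 := by
      rcases key with h | h | h
      · obtain ⟨r, hr, -⟩ := exists_r_prime (F := F) p h2 (Or.inl h); exact ⟨r, hr⟩
      · obtain ⟨r, hr, -⟩ := exists_r_prime (F := F) p h2 (Or.inr h); exact ⟨r, hr⟩
      · obtain ⟨k, rfl⟩ := h
        have hF2 : Fintype.card F = (p ^ 2) ^ k := by rw [hq, ← pow_mul, two_mul]
        have hL := card_fixF p two_pos hF2
        have := charP_sub p (fixF F p 2)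
        have : Fintype (fixF F p 2) := Fintype.ofFinite _
        obtain ⟨r, hr⟩ := exists_r_sq (F := fixF F p 2) p
          (fun h => h2 (by
            have := congrArg (fixF F p 2).subtype h
            rwa [map_ofNat, map_zero] at this)) (by rwa [← Nat.card_eq_fintype_card])
        exact ⟨r, by simpa using congrArg (fixF F p 2).subtype hr⟩
    obtain ⟨N, eN⟩ := exists_A5 p h2 h5' hr
    obtain ⟨H, ⟨e⟩⟩ := pull (le_W_of_A5 h2 eN)
    exact ⟨H, ⟨e.trans eN.some⟩⟩

theorem A4_iff (p n : ℕ) [Fact p.Prime] [CharP F p] (hF : Fintype.card F = p ^ n) :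
    (∃ H : Subgroup (Matrix.ProjectiveSpecialLinearGroup (Fin 2) F),
      Nonempty (H ≃* alternatingGroup (Fin 4))) ↔ ¬ (p = 2 ∧ Odd n) := by
  classical
  have := finite_P2 (F := F)
  have hp := (Fact.out : p.Prime)
  constructor
  · rintro ⟨H, ⟨e⟩⟩ ⟨rfl, hodd⟩
    set G := H.map (Matrix.ProjectiveSpecialLinearGroup.toPGL (n := Fin 2) (R := F))
    let eG : G ≃* alternatingGroup (Fin 4) := (H.equivMapOfInjective _
      Matrix.ProjectiveSpecialLinearGroup.toPGL_injective).symm.trans e
    have hG := card_A4 (N := G) ⟨eG⟩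
    cases subKind 2 G with
    | borel x h =>
      have hd := Subgroup.card_dvd_of_le (show G ≤ MulAction.stabilizer (P2 F) x from
        fun g hg => h g hg)
      rw [hG, card_stab, hF] at hd
      have h3 : 3 ∣ 2 ^ n * (2 ^ n - 1) := (show 3 ∣ 12 by norm_num).trans hd
      obtain ⟨k, rfl⟩ := hodd
      have h2n : 2 ^ (2 * k + 1) % 3 = 2 := by
        rw [pow_add, pow_mul, Nat.mul_mod, Nat.pow_mod]; norm_num
      generalize 2 ^ (2 * k + 1) = Q at h3 h2n
      rcases (Nat.Prime.dvd_mul Nat.prime_three).mp h3 with h3 | h3 <;> omega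
    | cyclic a b c hc hc1 hab hle hp => exact hp (by rw [hG]; norm_num)
    | dih a b c hc hc1 hab hcab hle m hm hord hmc e =>
      have h1 : orderOf (eG ⟨c, hc⟩) = orderOf c := by
        rw [MulEquiv.orderOf_eq, Subgroup.orderOf_mk]
      have := orderOf_le_A4 (eG ⟨c, hc⟩)
      omega
    | a4 hc hp e => exact hp (by norm_num)
    | s4 hc hp e => exact hp (by norm_num)
    | a5 hc hp e => omega
    | pgl γ L h | psl γ L h =>
      obtain ⟨b, m, hb, hm, hL, -, -⟩ := subfield_card 2 L
      have hcard := congrArg (fun K : Subgroup (P2 F) => Nat.card K) h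
      simp only [Subgroup.card_map_of_injective (f := (MulAut.conj γ).toMonoidHom) (MulAut.conj γ).injective, hG] at hcard
      have heven : Nat.gcd 2 (2 ^ b - 1) = 1 := by
        rw [← Nat.coprime_iff_gcd_eq_one, Nat.coprime_two_left, Nat.odd_iff]
        have : 2 ^ b = 2 * 2 ^ (b - 1) := by rw [← pow_succ']; congr 1; omega
        have : 0 < 2 ^ (b - 1) := Nat.two_pow_pos _
        omega
      have h12 : 2 ^ b * ((2 ^ b) ^ 2 - 1) = 12 := by
        first
          | rw [← hL, ← card_PL]; exact hcard.symm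
          | (have := card_PS_mul L; rw [← hcard, hL, heven] at this; omega)
      rcases (show b = 1 ∨ 2 ≤ b by omega) with rfl | hb2
      · norm_num at h12
      · have h4 : 4 ≤ 2 ^ b := Nat.pow_le_pow_right two_pos hb2
        have : 4 * (4 ^ 2 - 1) ≤ 2 ^ b * ((2 ^ b) ^ 2 - 1) :=
          Nat.mul_le_mul h4 (Nat.sub_le_sub_right (Nat.pow_le_pow_left h4 2) 1)
        omega
  · intro hne
    by_cases hp2 : p = 2
    · subst hp2
      obtain ⟨k, rfl⟩ : Even n := by
        rw [← Nat.not_odd_iff_even]; exact fun h => hne ⟨rfl, h⟩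
      obtain ⟨H, ⟨e⟩⟩ := exists_A5_sub 2 2 k two_pos (by rw [hF, ← pow_mul, two_mul])
        (Or.inl (by norm_num))
      let f : alternatingGroup (Fin 4) →* alternatingGroup (Fin 5) :=
        ((Equiv.Perm.extendDomainHom (finSuccAboveEquiv (Fin.last 4))).comp
          (alternatingGroup (Fin 4)).subtype).codRestrict (alternatingGroup (Fin 5)) (fun x => by
            rw [Equiv.Perm.mem_alternatingGroup, MonoidHom.comp_apply,
              Equiv.Perm.extendDomainHom_apply, Equiv.Perm.sign_extendDomain]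
            exact Equiv.Perm.mem_alternatingGroup.mp x.2)
      let g : alternatingGroup (Fin 4) →*
          Matrix.ProjectiveSpecialLinearGroup (Fin 2) F :=
        H.subtype.comp (e.symm.toMonoidHom.comp f)
      have hg : Function.Injective g := by
        refine H.subtype_injective.comp (e.symm.injective.comp ?_)
        rw [MonoidHom.injective_codRestrict]
        exact (Equiv.Perm.extendDomainHom_injective _).comp Subtype.val_injective
      exact ⟨g.range, ⟨(MonoidHom.ofInjective hg).symm⟩⟩
    · have h2 : (2 : F) ≠ 0 := by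
        simpa using natCast_ne_zero (F := F) p (n := 2)
          (fun h => hp2 ((Nat.prime_dvd_prime_iff_eq hp Nat.prime_two).mp h))
      obtain ⟨⟨A, hA, eA⟩, -⟩ := exists_A4_S4 (F := F) p h2
      obtain ⟨H, ⟨e⟩⟩ := pull hA
      exact ⟨H, ⟨e.trans eA.some⟩⟩

end CfsgLib.H29.Dickson
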